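import Mathlib
import Cfsg.Agent.H540.E8C.L13.Iface2
import Cfsg.Agent.H836.EightO
import Cfsg.Agent.H942.L7.Iface2

/-!
# S5919, the row `Ω₈⁺(2)`: interface (helper540)

`Om` is the group of `StdO8.Model`, `gen (a, b)` the Siegel transformation of the vectors with the codes `a`, `b`
(`1, 2, 4, 8` = `e₁ … e₄`, `16, 32, 64, 128` = `f₁ … f₄`); `word_eq` (StdO8.Code) proves equalities of words by computation.
-/

set_option autoImplicit false
set_option maxRecDepth 100000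

namespace Cfsg.Agent.H540.E8C.O8

open Cfsg Cfsg.Lie Module
open Cfsg.Agent.H540.E8C.End
open Cfsg.Agent.StdO8.Model (Om)
open Cfsg.Agent.StdO8.Code (gen word)
open Cfsg.Agent.H657 IsLocalRing
open Cfsg.Agent.H942.Common Cfsg.Agent.H942.E8Alc

/-- the vectors fixed by the elements `F (gen p)`, `p ∈ l` -/
def fx (F : Om →* E) (l : List (ℕ × ℕ)) : Submodule (ZMod 3) LL where
  carrier := {v | ∀ p ∈ l, ac (F (gen p)) v = v}
  add_mem' := fun ha hb p hp => by rw [ac_add, ha p hp, hb p hp]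
  zero_mem' := fun p _ => ac_zero _
  smul_mem' := fun c v hv p hp => (Matrix.mulVec_smul _ _ _).trans (congrArg (fun w => c • w) (hv p hp))

/-- the unipotent radical `Λ²(W)` of the stabiliser of `W = ⟨e₁, e₂, e₃, e₄⟩` -/
def gU : List (ℕ × ℕ) := [(1, 2), (1, 4), (1, 8), (2, 4), (2, 8), (4, 8)]
/-- positive root elements of `GL(W)` -/
def gT : List (ℕ × ℕ) := [(1, 32), (1, 64), (1, 128), (2, 64), (2, 128), (4, 128)]
/-- negative root elements of `GL(W)` -/
def gT' : List (ℕ × ℕ) := [(2, 16), (4, 16), (8, 16), (4, 32), (8, 32), (8, 64)]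
/-- the opposite unipotent radical -/
def gU' : List (ℕ × ℕ) := [(16, 32), (16, 64), (16, 128), (32, 64), (32, 128), (64, 128)]

/-- **Task O8-GEN**: the root elements generate. -/
def Gen24 : Prop := Subgroup.closure {g : Om | ∃ p ∈ gU ++ gT ++ gT' ++ gU', g = gen p} = ⊤

/-- **Task O8-NUM1**: the dimension of the fixed space of `U` and the values at the involutions of `U`. -/
def Num1 : Prop := ∀ F : Om →* E, Function.Injective F → finrank (ZMod 3) (fx F gU) = 10 ∧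
  ∀ (M : Ideal AlgInt) (V : ValuationSubring ℂ) (_ : IsPModular 3 M) (_ : Above M V) [CharP (ResidueField V) 3],
    bc 3 (adj V F) (gen (1, 2)) = -8 ∧ bc 3 (adj V F) (gen (1, 2) * gen (4, 8)) = 24

/-- **Task O8-LIN1**: the fixed vectors of the Sylow subgroup `U : T` are fixed by the parabolic subgroup. -/
def Lin1 : Prop := ∀ F : Om →* E, Function.Injective F → finrank (ZMod 3) (fx F gU) = 10 →
  3 ≤ finrank (ZMod 3) (fx F (gU ++ gT)) ∧ ∀ v ∈ fx F (gU ++ gT), ∀ p ∈ gT', ac (F (gen p)) v = v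

/-- an element of order 5 of `GL(W)` -/
def yw : List (ℕ × ℕ) := [(1, 32), (1, 64), (2, 16), (4, 128), (8, 32)]

/-- an involution of `U` commuting with `word yw` -/
def cw : List (ℕ × ℕ) := [(1, 4), (2, 8), (4, 8)]

/-- exchange of `e₄` and `f₄` on codes -/
def swc (v : ℕ) : ℕ := (v &&& 0x77) ||| ((v.testBit 3).toNat <<< 7) ||| ((v.testBit 7).toNat <<< 3)

/-- exchange of `e₄` and `f₄` on words -/
def sww (l : List (ℕ × ℕ)) : List (ℕ × ℕ) := l.map fun p => (swc p.1, swc p.2)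

/-- **Tau** (helper540): the graph automorphism. -/
def Tau : Prop := ∃ τ : Om ≃* Om, ∀ l : List (ℕ × ℕ), (∀ p ∈ l, p.1 < 256 ∧ p.2 < 256) → τ (word l) = word (sww l)

/-- **Task O8-NUM5** -/
def Num5 : Prop := Num1 → Tau → ∀ F : Om →* E, Function.Injective F →
  (∃ x' : E, x' ^ 2 = 1 ∧ x' ≠ 1 ∧ Commute (F (word yw)) x' ∧
    ∀ v : LL, ac (F (word yw)) v = v → ac x' v = v) ∧
  ∃ v : LL, ac (F (word yw)) v = v ∧ ac (F (word cw)) v ≠ v

/-- all vectors fixed by `Ω₈⁺(2)` (helper540) -/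
def FixAll : Prop := ∀ F : Om →* E, Function.Injective F → ∃ v : LL, v ≠ 0 ∧ ∀ g, ac (F g) v = v

/-- **Task O8-GRP** -/
def Grp8 : Prop := ∀ (H : Type) [Group H] [Finite H]
    (_ : Nonempty (↥(Cfsg.generalizedFittingSubgroup H) ≃* Cfsg.Omega (ZMod 2) (Cfsg.quadFormPlus 4 (ZMod 2)))),
    ∃ φ : Om →* H, Function.Injective φ ∧ φ.range.Normal ∧
      ∀ z : H, (∀ s, Commute z (φ s)) → z = 1

/-- the row -/
def Row8 : Prop := ∀ (H : Subgroup E)
    (_ : Nonempty (↥(Cfsg.generalizedFittingSubgroup ↥H) ≃* Cfsg.Omega (ZMod 2) (Cfsg.quadFormPlus 4 (ZMod 2)))),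
    ¬ IsCoatom H

end Cfsg.Agent.H540.E8C.O8
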