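import Mathlib
import Cfsg.Agent.H540.E8C.O8.Iface

/-!
# S5919, the row `Ω₈⁺(2)`: the graph automorphism, and all fixed vectors (helper540)
-/

set_option autoImplicit false
set_option maxRecDepth 100000

namespace Cfsg.Agent.H540.E8C.O8

open Cfsg Cfsg.Lie Module QuadraticMap
open Cfsg.Agent.H540.E8C.End
open Cfsg.Agent.StdO8.Model Cfsg.Agent.StdO8.Code Cfsg.Agent.StdO8.Aut Cfsg.Agent.H836.EightO

theorem q136 : q (dec 136) = 1 := by
  rw [q_dec]
  decide

theorem swc_eq : ∀ a : Fin 256, swc a.1 = a.1 ^^^ (if Bn 136 a.1 then 136 else 0) := by decide +kernel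

theorem rf_dec {a : ℕ} (ha : a < 256) : (rf (dec 136) q136 : V ≃ₗ[ZMod 2] V) (dec a) = dec (swc a) := by
  rw [rf_apply, swc_eq ⟨a, ha⟩, dec_xor, dec_ite, B_dec]

theorem cj_gen {p : ℕ × ℕ} (h : p.1 < 256 ∧ p.2 < 256) :
    cj (rf (dec 136) q136) (gen p) = gen (swc p.1, swc p.2) := by
  apply Subtype.ext
  rw [cj_coe]
  show _ * X (dec p.1) (dec p.2) * _ = X (dec (swc p.1)) (dec (swc p.2))
  rw [X_conj (rf (dec 136) q136).2, rf_dec h.1, rf_dec h.2]

theorem cj_word (l : List (ℕ × ℕ)) (h : ∀ p ∈ l, p.1 < 256 ∧ p.2 < 256) :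
    cj (rf (dec 136) q136) (word l) = word (sww l) := by
  induction l with
  | nil => exact map_one _
  | cons p l ih =>
    rw [word_cons, map_mul, cj_gen (h p (by simp)), ih fun p' hp' => h p' (by simp [hp'])]
    rfl

theorem tau : Tau := ⟨cj (rf (dec 136) q136), cj_word⟩

/-- the elements fixing a vector -/
def stV (F : Om →* E) (v : LL) : Subgroup Om := (stab v).comap F

theorem mem_stV {F : Om →* E} {v : LL} {g : Om} : g ∈ stV F v ↔ ac (F g) v = v := Iff.rfl

theorem sw_mem : ∀ p ∈ gU ++ gT, (swc p.1, swc p.2) ∈ gU ++ gT := by decide +kernel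

theorem lt_T' : ∀ p ∈ gT', p.1 < 256 ∧ p.2 < 256 := by decide +kernel
theorem lt_Q : ∀ p ∈ gU ++ gT, p.1 < 256 ∧ p.2 < 256 := by decide +kernel

theorem comms : ∀ p ∈ [(16, 32, 16, 128, 8, 32), (16, 64, 16, 128, 8, 64), (32, 64, 32, 128, 8, 64)],
    same [(p.1, p.2.1)] [(p.2.2.1, p.2.2.2.1), (p.2.2.2.2.1, p.2.2.2.2.2), (p.2.2.1, p.2.2.2.1),
      (p.2.2.2.2.1, p.2.2.2.2.2)] = true := by decide +kernel

theorem symm16 : same [(16, 128)] [(128, 16)] = true := by decide +kernel
theorem symm32 : same [(32, 128)] [(128, 32)] = true := by decide +kernel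
theorem symm64 : same [(64, 128)] [(128, 64)] = true := by decide +kernel

theorem fixAll (hN : Num1) (hL : Lin1) (hG : Gen24) : FixAll := by
  intro F hF
  obtain ⟨τ, hτ⟩ := tau
  obtain ⟨h3, h1⟩ := hL F hF (hN F hF).1
  have hτg : ∀ p : ℕ × ℕ, p.1 < 256 ∧ p.2 < 256 → τ (gen p) = gen (swc p.1, swc p.2) := by
    intro p hp
    have h := hτ [p] (by intro p' hp'; rw [List.mem_singleton] at hp'; rw [hp']; exact hp)
    rwa [word_single, sww, List.map_singleton, word_single] at h
  have hF' : Function.Injective (F.comp τ.toMonoidHom) := hF.comp τ.injective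
  obtain ⟨-, h2⟩ := hL (F.comp τ.toMonoidHom) hF' (hN _ hF').1
  have hne : fx F (gU ++ gT) ≠ ⊥ := by
    intro h
    rw [h, finrank_bot] at h3
    omega
  obtain ⟨v, hv, hv0⟩ := (Submodule.ne_bot_iff _).1 hne
  refine ⟨v, hv0, ?_⟩
  have hv' : v ∈ fx (F.comp τ.toMonoidHom) (gU ++ gT) := by
    intro p hp
    show ac (F (τ (gen p))) v = v
    rw [hτg p (lt_Q p hp)]
    exact hv _ (sw_mem p hp)
  have e2 : ∀ p ∈ gT', gen (swc p.1, swc p.2) ∈ stV F v := by
    intro p hp
    have h := h2 v hv' p hp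
    rw [← hτg p (lt_T' p hp)]
    exact h
  have e1 : ∀ p ∈ gT', gen p ∈ stV F v := fun p hp => h1 v hv p hp
  have e0 : ∀ p ∈ gU ++ gT, gen p ∈ stV F v := fun p hp => hv p hp
  have a16 : gen (16, 128) ∈ stV F v := by
    rw [← word_single, word_eq symm16, word_single]
    exact e2 (8, 16) (by decide)
  have a32 : gen (32, 128) ∈ stV F v := by
    rw [← word_single, word_eq symm32, word_single]
    exact e2 (8, 32) (by decide)
  have a64 : gen (64, 128) ∈ stV F v := by
    rw [← word_single, word_eq symm64, word_single]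
    exact e2 (8, 64) (by decide)
  have b32 : gen (8, 32) ∈ stV F v := e1 (8, 32) (by decide)
  have b64 : gen (8, 64) ∈ stV F v := e1 (8, 64) (by decide)
  have hc : ∀ {a b c : ℕ × ℕ}, same [a] [b, c, b, c] = true → gen b ∈ stV F v → gen c ∈ stV F v →
      gen a ∈ stV F v := by
    intro a b c h hb hc
    rw [← word_single, word_eq h, word_cons, word_cons, word_cons, word_single]
    exact mul_mem hb (mul_mem hc (mul_mem hb hc))
  have a1 : gen (16, 32) ∈ stV F v := hc (comms (16, 32, 16, 128, 8, 32) (by decide)) a16 b32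
  have a2 : gen (16, 64) ∈ stV F v := hc (comms (16, 64, 16, 128, 8, 64) (by decide)) a16 b64
  have a3 : gen (32, 64) ∈ stV F v := hc (comms (32, 64, 32, 128, 8, 64) (by decide)) a32 b64
  have hall : (⊤ : Subgroup Om) ≤ stV F v := by
    rw [← hG, Subgroup.closure_le]
    rintro g ⟨p, hp, rfl⟩
    rw [List.mem_append, List.mem_append] at hp
    rcases hp with (hp | hp) | hp
    · exact e0 p hp
    · exact e1 p hp
    · simp only [gU', List.mem_cons, List.not_mem_nil, or_false] at hp
      rcases hp with rfl | rfl | rfl | rfl | rfl | rfl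
      · exact a1
      · exact a2
      · exact a16
      · exact a3
      · exact a32
      · exact a64
  exact fun g => hall (Subgroup.mem_top g)

end Cfsg.Agent.H540.E8C.O8
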